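import Cfsg.Agent.S5394
import Cfsg.Agent.Lib.GolayStructure.OctadStab
import Cfsg.Agent.Lib.Golay.Stab

/-!
# The pointwise and setwise stabilisers of an octad: the facts used for the self-centralizing `2 ^ 10`
-/

set_option autoImplicit false

open Cfsg
open scoped Pointwise

namespace CfsgLib.JFour.TwoTen

open CfsgLib.Golay CfsgLib.GolayStructure

variable {o : Finset GolayPt}

theorem card_octad (ho : o ∈ octads) : o.card = 8 := CfsgLib.Golay.card_eq_of_mem_octads ho

theorem exists_not_mem (ho : o ∈ octads) : ∃ x, x ∉ o := by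
  obtain ⟨x, -, hx⟩ := Finset.exists_mem_notMem_of_card_lt_card
    (s := o) (t := Finset.univ) (by rw [card_octad ho, Finset.card_univ]; decide)
  exact ⟨x, hx⟩

theorem card_kernel (ho : o ∈ octads) : Nat.card (octadKernel o) = 16 := card_octadKernel ho

theorem kernel_sq (ho : o ∈ octads) {f : Equiv.Perm GolayPt} (hf : f ∈ octadKernel o) : f * f = 1 :=
  (octad_pointwise ho).2 f hf

theorem kernel_comm (ho : o ∈ octads) {f g : Equiv.Perm GolayPt} (hf : f ∈ octadKernel o)
    (hg : g ∈ octadKernel o) : f * g = g * f := by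
  have h := kernel_sq ho (mul_mem hf hg)
  calc f * g = (f * g)⁻¹ := (inv_eq_of_mul_eq_one_right h).symm
    _ = g * f := by
      rw [mul_inv_rev, inv_eq_of_mul_eq_one_right (kernel_sq ho hf),
        inv_eq_of_mul_eq_one_right (kernel_sq ho hg)]

theorem kernel_fix (ho : o ∈ octads) {f : Equiv.Perm GolayPt} (hf : f ∈ octadKernel o) (hf1 : f ≠ 1)
    (x : GolayPt) : f x = x ↔ x ∈ o := by
  refine ⟨fun h => ?_, fun h => (mem_octadKernel.1 hf).2 x h⟩
  by_contra hx
  apply hf1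
  rw [← Subgroup.mem_bot, ← (card_octadPointGroup ho hx).2]
  exact Subgroup.mem_inf.2 ⟨hf, Subgroup.mem_inf.2 ⟨octadKernel_le o hf, h⟩⟩

/-- The kernel is regular on the points outside the octad. -/
theorem kernel_eq_of_eq (ho : o ∈ octads) {f g : Equiv.Perm GolayPt} (hf : f ∈ octadKernel o)
    (hg : g ∈ octadKernel o) {x : GolayPt} (hx : x ∉ o) (h : f x = g x) : f = g := by
  by_contra hne
  have h1 : g⁻¹ * f ≠ 1 := fun e => hne (inv_mul_eq_one.1 e).symm
  exact hx ((kernel_fix ho (mul_mem (inv_mem hg) hf) h1 x).1 (by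
    rw [Equiv.Perm.mul_apply, h, Equiv.Perm.inv_def, Equiv.symm_apply_apply]))

theorem exists_kernel_map (ho : o ∈ octads) {x y : GolayPt} (hx : x ∉ o) (hy : y ∉ o) :
    ∃ f ∈ octadKernel o, f x = y := octadKernel_transitive ho hx hy

theorem orderOf_two {f : Equiv.Perm GolayPt} (h : f * f = 1) (h1 : f ≠ 1) : orderOf f = 2 :=
  orderOf_eq_prime (by rw [pow_two, h]) h1

theorem filter_fix (ho : o ∈ octads) {f : Equiv.Perm GolayPt} (hf : f ∈ octadKernel o) (hf1 : f ≠ 1) :
    (Finset.univ.filter fun x => f x = x) = o := by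
  ext x
  simp [kernel_fix ho hf hf1 x]

/-- An involution with a fixed point lies in an octad kernel. -/
theorem exists_kernel_of_fix {f : Equiv.Perm GolayPt} (hf : f ∈ Cfsg.M24) (h2 : f * f = 1) (h1 : f ≠ 1)
    {x : GolayPt} (hx : f x = x) : ∃ o ∈ octads, x ∈ o ∧ f ∈ octadKernel o := by
  rcases Cfsg.Agent.S5394.result.1 f hf (orderOf_two h2 h1) with h | h
  · exact ⟨_, h, by simp [hx], mem_octadKernel.2 ⟨hf, fun p hp => by simpa using hp⟩⟩
  · exact absurd hx (h x)

/-- An involution cannot fix every point outside an octad. -/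
theorem eq_one_of_fix_compl (ho : o ∈ octads) {f : Equiv.Perm GolayPt} (hf : f ∈ Cfsg.M24) (h2 : f * f = 1)
    (hfix : ∀ x, x ∉ o → f x = x) : f = 1 := by
  by_contra h1
  obtain ⟨x, hx⟩ := exists_not_mem ho
  obtain ⟨o', ho', -, hk⟩ := exists_kernel_of_fix hf h2 h1 (hfix x hx)
  have hsub : (Finset.univ \ o) ⊆ o' := fun y hy =>
    (kernel_fix ho' hk h1 y).1 (hfix y (Finset.mem_sdiff.1 hy).2)
  have := Finset.card_le_card hsub
  rw [Finset.card_univ_diff, card_octad ho, card_octad ho',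
    show Fintype.card GolayPt = 24 from rfl] at this
  omega

theorem mem_octadGroup_of_commute (ho : o ∈ octads) {f g : Equiv.Perm GolayPt} (hf : f ∈ octadKernel o)
    (hf1 : f ≠ 1) (hg : g ∈ Cfsg.M24) (hgf : g * f = f * g) : g ∈ octadGroup o := by
  refine mem_octadGroup.2 ⟨hg, Finset.eq_of_subset_of_card_le (fun q hq => ?_) ?_⟩
  · obtain ⟨x, hx, rfl⟩ := Finset.mem_smul_finset.1 hq
    rw [Equiv.Perm.smul_def, ← kernel_fix ho hf hf1, ← Equiv.Perm.mul_apply, ← hgf,
      Equiv.Perm.mul_apply, (kernel_fix ho hf hf1 x).2 hx]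
  · rw [Finset.card_smul_finset]

theorem conj_mem_kernel {s f : Equiv.Perm GolayPt} (hs : s ∈ octadGroup o) (hf : f ∈ octadKernel o) :
    s * f * s⁻¹ ∈ octadKernel o := by
  refine mem_octadKernel.2 ⟨mul_mem (mul_mem (mem_octadGroup.1 hs).1 (mem_octadKernel.1 hf).1)
    (inv_mem (mem_octadGroup.1 hs).1), fun x hx => ?_⟩
  have h : s⁻¹ x ∈ o := by
    rw [← octad_mem_iff hs]; simpa using hx
  rw [Equiv.Perm.mul_apply, Equiv.Perm.mul_apply, (mem_octadKernel.1 hf).2 _ h]
  simp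

/-- The octad group is transitive on the involutions of its kernel. -/
theorem exists_conj_kernel (ho : o ∈ octads) {f g : Equiv.Perm GolayPt} (hf : f ∈ octadKernel o)
    (hf1 : f ≠ 1) (hg : g ∈ octadKernel o) (hg1 : g ≠ 1) :
    ∃ s ∈ octadGroup o, s * f * s⁻¹ = g := by
  obtain ⟨x, hx⟩ : o.Nonempty := Finset.card_pos.1 (by rw [card_octad ho]; omega)
  obtain ⟨s, hs, e⟩ := Cfsg.Agent.S5394.result.2.2.2 f (mem_octadKernel.1 hf).1 g (mem_octadKernel.1 hg).1
    (orderOf_two (kernel_sq ho hf) hf1) (orderOf_two (kernel_sq ho hg) hg1)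
    ⟨fun h => absurd ((mem_octadKernel.1 hf).2 x hx) (h x), fun h => absurd ((mem_octadKernel.1 hg).2 x hx) (h x)⟩
  refine ⟨s, mem_octadGroup.2 ⟨hs, Finset.eq_of_subset_of_card_le (fun q hq => ?_) ?_⟩, e⟩
  · obtain ⟨y, hy, rfl⟩ := Finset.mem_smul_finset.1 hq
    rw [Equiv.Perm.smul_def, ← kernel_fix ho hg hg1, ← e, Equiv.Perm.mul_apply, Equiv.Perm.mul_apply,
      Equiv.Perm.inv_def, Equiv.symm_apply_apply, (kernel_fix ho hf hf1 y).2 hy]
  · rw [Finset.card_smul_finset]

/-- An element of order seven commuting with a given element of the kernel. -/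
theorem exists_seven (ho : o ∈ octads) {f : Equiv.Perm GolayPt} (hf : f ∈ octadKernel o) (hf1 : f ≠ 1) :
    ∃ s ∈ octadGroup o, orderOf s = 7 ∧ s * f = f * s ∧ ∃ x ∈ o, s x ≠ x := by
  classical
  haveI : Fact (Nat.Prime 7) := ⟨by norm_num⟩
  obtain ⟨⟨r, hr⟩, hr7⟩ := exists_prime_orderOf_dvd_card' (G := octadGroup o) 7
    (by rw [card_octadGroup ho]; norm_num)
  rw [Subgroup.orderOf_mk] at hr7
  have hr' : r⁻¹ ∈ octadGroup o := inv_mem hr
  let X := {g : Equiv.Perm GolayPt // g ∈ octadKernel o ∧ g ≠ 1}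
  haveI : Fintype X := Fintype.ofFinite X
  have hX : Fintype.card X = 15 := by
    have h := card_kernel ho
    have e : Fintype.card X = Nat.card ↥(octadKernel o) - 1 := by
      rw [← Nat.card_eq_fintype_card]
      have e1 : Nat.card X = Nat.card {g : ↥(octadKernel o) // g ≠ 1} :=
        Nat.card_congr
          { toFun := fun g => ⟨⟨g.1, g.2.1⟩, fun e => g.2.2 (congrArg Subtype.val e)⟩
            invFun := fun g => ⟨g.1.1, g.1.2, fun e => g.2 (Subtype.ext e)⟩
            left_inv := fun _ => rfl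
            right_inv := fun _ => rfl }
      rw [e1, Nat.card_eq_fintype_card, Fintype.card_subtype_compl, Fintype.card_subtype_eq,
        Nat.card_eq_fintype_card]
    rw [e, h]
  let σ : Equiv.Perm X :=
    { toFun := fun g => ⟨r * g.1 * r⁻¹, conj_mem_kernel hr g.2.1, fun e => g.2.2 (conj_eq_one_iff.1 e)⟩
      invFun := fun g => ⟨r⁻¹ * g.1 * r⁻¹⁻¹, conj_mem_kernel hr' g.2.1, fun e => g.2.2 (conj_eq_one_iff.1 e)⟩
      left_inv := fun g => Subtype.ext (by show r⁻¹ * (r * g.1 * r⁻¹) * r⁻¹⁻¹ = g.1; group)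
      right_inv := fun g => Subtype.ext (by show r * (r⁻¹ * g.1 * r⁻¹⁻¹) * r⁻¹ = g.1; group) }
  have hpow : ∀ (k : ℕ) (g : X), ((σ ^ k) g).1 = r ^ k * g.1 * (r ^ k)⁻¹ := by
    intro k
    induction k with
    | zero => intro g; simp
    | succ k ih =>
      intro g
      rw [pow_succ', Equiv.Perm.mul_apply]
      show r * ((σ ^ k) g).1 * r⁻¹ = _
      rw [ih, pow_succ']
      group
  obtain ⟨g₀, hg₀⟩ := Equiv.Perm.exists_fixed_point_of_prime (p := 7) (n := 1) (σ := σ)
    (by rw [hX]; norm_num) (Equiv.ext fun g => Subtype.ext (by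
      rw [hpow]
      rw [show r ^ 7 ^ 1 = 1 by rw [pow_one, ← hr7, pow_orderOf_eq_one]]
      simp))
  have hfix : r * g₀.1 * r⁻¹ = g₀.1 := congrArg Subtype.val hg₀
  obtain ⟨c, hc, hce⟩ := exists_conj_kernel ho g₀.2.1 g₀.2.2 hf hf1
  have hs : c * r * c⁻¹ ∈ octadGroup o := mul_mem (mul_mem hc hr) (inv_mem hc)
  have hs7 : orderOf (c * r * c⁻¹) = 7 := by
    rw [← hr7]
    exact orderOf_injective (MulAut.conj c).toMonoidHom (MulAut.conj c).injective r
  refine ⟨_, hs, hs7, ?_, ?_⟩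
  · rw [← hce]
    calc c * r * c⁻¹ * (c * g₀.1 * c⁻¹) = c * (r * g₀.1 * r⁻¹) * r * c⁻¹ := by group
      _ = c * g₀.1 * c⁻¹ * (c * r * c⁻¹) := by rw [hfix]; group
  · by_contra h
    push Not at h
    have hk : c * r * c⁻¹ ∈ octadKernel o := mem_octadKernel.2 ⟨(mem_octadGroup.1 hs).1, h⟩
    have : orderOf (c * r * c⁻¹) ∣ 2 := orderOf_dvd_of_pow_eq_one (by rw [pow_two]; exact kernel_sq ho hk)
    rw [hs7] at this
    norm_num at this

/-- Every even permutation of the points of an octad is induced by the code group. -/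
theorem exists_even_lift (ho : o ∈ octads) {π : Equiv.Perm ↥o} (hπ : π ∈ alternatingGroup ↥o) :
    ∃ s ∈ octadGroup o, ∀ x : ↥o, s (x : GolayPt) = (π x : GolayPt) := by
  rw [← octadRestrict_range ho] at hπ
  obtain ⟨s, rfl⟩ := hπ
  exact ⟨s, s.2, fun x => rfl⟩

/-- The octad group is fourfold transitive on the points of the octad. -/
theorem exists_map_four (ho : o ∈ octads) (u v : Fin 4 ↪ GolayPt) (hu : ∀ i, u i ∈ o) (hv : ∀ i, v i ∈ o) :
    ∃ s ∈ octadGroup o, ∀ i, s (u i) = v i := by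
  classical
  have h6 : MulAction.IsMultiplyPretransitive (alternatingGroup ↥o) ↥o (Nat.card ↥o - 2) :=
    alternatingGroup.isMultiplyPretransitive (α := ↥o)
  have h4 : MulAction.IsMultiplyPretransitive (alternatingGroup ↥o) ↥o 4 := by
    refine MulAction.isMultiplyPretransitive_of_le (n := Nat.card ↥o - 2) ?_ (Nat.sub_le _ _)
    rw [Nat.card_eq_fintype_card, Fintype.card_coe, card_octad ho]
    norm_num
  let u' : Fin 4 ↪ ↥o := ⟨fun i => ⟨u i, hu i⟩, fun i j h => u.injective (congrArg Subtype.val h)⟩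
  let v' : Fin 4 ↪ ↥o := ⟨fun i => ⟨v i, hv i⟩, fun i j h => v.injective (congrArg Subtype.val h)⟩
  obtain ⟨π, hπ⟩ := MulAction.exists_smul_eq (alternatingGroup ↥o) u' v'
  obtain ⟨s, hs, hsx⟩ := exists_even_lift ho π.2
  refine ⟨s, hs, fun i => ?_⟩
  rw [show (u i) = ((u' i : ↥o) : GolayPt) from rfl, hsx]
  exact congrArg Subtype.val (DFunLike.congr_fun hπ i)

end CfsgLib.JFour.TwoTen
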